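import Cfsg.Agent.H236.RC.HerA
import Cfsg.Agent.H236.RC.D5
import Cfsg.Agent.H749.Herm
import Mathlib.FieldTheory.KummerExtension

/-!
# S3510, row D (symplectic groups), the special unitary subgroup (helper236)

* `exists_her` : `θ ^ 2 = δ` not a square, `θ* = -θ` : the group `SU_n(q) ≤ Sp_{2n}(q)` of `F[θ]`, its action,
  normalised by the linear semisimilitudes commuting with `θ`, its commutant is `F[θ]`.
-/

set_option autoImplicit false
set_option linter.unusedSectionVars false

open Cfsg

namespace Cfsg.Agent.H236.RC.Her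

open Module Cfsg.Agent.H106.RC Cfsg.Agent.H520.RC Cfsg.Agent.LieClassical.HermBasic
  Cfsg.Agent.LieClassical.HermSiegel Cfsg.Agent.H236.RC.D5
open scoped Matrix

section field

variable {F K V : Type*} [Field F] [Finite F] [Field K] [Fintype K] [Algebra F K] [FiniteDimensional F K]
  [AddCommGroup V] [Module F V] [Module K V] [IsScalarTower F K V] [FiniteDimensional K V]
  {B : LinearMap.BilinForm F V} {q : ℕ}

theorem tr_pow (hq : Nat.card F = q) (k : K) : Algebra.trace F K (k ^ q) = Algebra.trace F K k := by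
  have := Fintype.ofFinite F
  rw [← hq, Nat.card_eq_fintype_card]
  exact Algebra.trace_eq_of_algEquiv (FiniteField.frobeniusAlgEquivOfAlgebraic F K) k

theorem exists_H (B : LinearMap.BilinForm F V) :
    ∃ H : V → V → K, ∀ k u v, Algebra.trace F K (k * H u v) = B (k • u) v := by
  have h1 := traceForm_nondegenerate F K
  have hex : ∀ u v : V, ∃ c : K, ∀ k : K, Algebra.trace F K (k * c) = B (k • u) v := by
    intro u v
    let f : Module.Dual F K :=
      { toFun := fun k => B (k • u) v
        map_add' := fun k l => by rw [add_smul, map_add, LinearMap.add_apply]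
        map_smul' := fun a k => by
          rw [smul_assoc, map_smul, LinearMap.smul_apply, RingHom.id_apply] }
    refine ⟨((Algebra.traceForm F K).toDual h1).symm f, fun k => ?_⟩
    have h2 := LinearMap.BilinForm.apply_toDual_symm_apply (hB := h1) (f := f) (v := k)
    rw [Algebra.traceForm_apply, mul_comm] at h2
    exact h2
  choose H hH using hex
  exact ⟨H, fun k u v => hH u v k⟩

/-- orthonormal coordinates -/
theorem exists_iso_her (hB : NAlt B) (hK : Fintype.card K = q ^ 2) (hq : Nat.card F = q)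
    (hs : ∀ (k : K) (u v : V), B (k • u) v = B u (k ^ q • v)) :
    ∃ (c : K) (j : (Fin (finrank K V) → K) ≃ₗ[K] V), c ≠ 0 ∧ ∀ k x y,
      Algebra.trace F K (k * hermForm (finrank K V) K q x y) = B ((k * c) • j x) (j y) := by
  obtain ⟨H, hH⟩ := exists_H (K := K) B
  obtain ⟨c, hc0, hc⟩ := exists_trace_zero_ne (F := K) (q := q) hK
  have hcq : c ^ q = -c := eq_neg_of_add_eq_zero_right hc
  have hh : H749.HermF (conj hK : K →+* K) (fun u v => c * H u v) := by
    refine ⟨?_, ?_, ?_, ?_⟩
    · intro u u' v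
      rw [← mul_add]
      congr 1
      apply tr_ext (F := F)
      intro k
      rw [mul_add, map_add, hH, hH, hH, smul_add, map_add, LinearMap.add_apply]
    · intro a u v
      rw [mul_left_comm]
      congr 1
      apply tr_ext (F := F)
      intro k
      rw [← mul_assoc, hH, hH, mul_smul]
    · intro u v
      show c * H v u = (c * H u v) ^ q
      rw [mul_pow, hcq, neg_mul, ← mul_neg]
      congr 1
      apply tr_ext (F := F)
      intro k
      have h1 : Algebra.trace F K (k * -H u v ^ q) = - Algebra.trace F K (k ^ q * H u v) := by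
        rw [mul_neg, map_neg, ← tr_pow hq (k ^ q * H u v), mul_pow, pow_q_pow_q hK]
      rw [h1, hH, hH, hB.swap (k • v) u, hs (k ^ q), pow_q_pow_q hK]
    · intro u hu
      apply hB.nd
      intro v
      have h1 := hH 1 u v
      rw [(mul_eq_zero.1 (hu v)).resolve_left hc0, mul_zero, map_zero, one_smul] at h1
      exact h1.symm
  have hσ : (conj hK : K →+* K) ≠ RingHom.id K := by
    intro h
    obtain ⟨x, hx⟩ := exists_not_fixed (F := K) (q := q) hK
    exact hx (RingHom.congr_fun h x)
  obtain ⟨j, hj⟩ := hh.exists_iso hσ (fun a => pow_q_pow_q hK a) (fun x => rfl) (n := finrank K V) rfl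
  refine ⟨c, j, hc0, fun k x y => ?_⟩
  rw [← hj, ← mul_assoc, hH]

variable {n : ℕ}

/-- the action as a linear map -/
def actL (s : SU n K q) : (Fin n → K) ≃ₗ[K] (Fin n → K) where
  toFun := act s
  invFun := act s⁻¹
  left_inv := act_inv_act s
  right_inv := act_act_inv s
  map_add' := act_add s
  map_smul' := act_smul s

theorem det_actL (s : SU n K q) : LinearMap.det (actL s : (Fin n → K) →ₗ[K] (Fin n → K)) = 1 := by
  have h1 : (actL s : (Fin n → K) →ₗ[K] (Fin n → K)) = Matrix.toLin' (mat s) := by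
    apply LinearMap.ext
    intro v
    rfl
  rw [h1, LinearMap.det_toLin', det_mat]

/-- the action on `V` -/
def opK (j : (Fin n → K) ≃ₗ[K] V) (s : SU n K q) : V ≃ₗ[K] V := (j.symm.trans (actL s)).trans j

theorem opK_apply (j : (Fin n → K) ≃ₗ[K] V) (s : SU n K q) (v : V) : opK j s v = j (act s (j.symm v)) := rfl

theorem det_opK (j : (Fin n → K) ≃ₗ[K] V) (s : SU n K q) : LinearMap.det (opK j s : V →ₗ[K] V) = 1 := by
  rw [← det_actL s, ← LinearMap.det_conj (actL s : (Fin n → K) →ₗ[K] (Fin n → K)) j]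
  rfl

variable {c : K} {j : (Fin n → K) ≃ₗ[K] V}

/-- the homomorphism `SU n K q →* Sp B` -/
def jU (hc : c ≠ 0) (hj : ∀ k x y, Algebra.trace F K (k * hermForm n K q x y) = B ((k * c) • j x) (j y)) :
    SU n K q →* Sp B where
  toFun s := ⟨(opK j s).restrictScalars F, fun u v => by
    show B (j (act s (j.symm u))) (j (act s (j.symm v))) = B u v
    have h1 := hj c⁻¹ (act s (j.symm u)) (act s (j.symm v))
    rw [herm_act, hj, inv_mul_cancel₀ hc, one_smul, one_smul, j.apply_symm_apply, j.apply_symm_apply] at h1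
    exact h1.symm⟩
  map_one' := by
    apply Subtype.ext
    apply LinearEquiv.ext
    intro v
    show j (act 1 (j.symm v)) = v
    rw [act_one, j.apply_symm_apply]
  map_mul' s t := by
    apply Subtype.ext
    apply LinearEquiv.ext
    intro v
    show j (act (s * t) (j.symm v)) = j (act s (j.symm (j (act t (j.symm v)))))
    rw [act_mul, j.symm_apply_apply]

variable (hc : c ≠ 0) (hj : ∀ k x y, Algebra.trace F K (k * hermForm n K q x y) = B ((k * c) • j x) (j y))

theorem jU_apply (s : SU n K q) (v : V) : (jU hc hj s).1 v = j (act s (j.symm v)) := rfl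

theorem jU_j (s : SU n K q) (x : Fin n → K) : (jU hc hj s).1 (j x) = j (act s x) := by
  rw [jU_apply, j.symm_apply_apply]

theorem jU_smul (s : SU n K q) (k : K) (v : V) : (jU hc hj s).1 (k • v) = k • (jU hc hj s).1 v := by
  rw [jU_apply, jU_apply, map_smul, act_smul, map_smul]

theorem jU_injective : Function.Injective (jU hc hj) := by
  intro s t h
  apply ext_act
  intro x
  apply j.injective
  rw [← jU_j hc hj, ← jU_j hc hj, h]

/-- the image -/
theorem exists_jU {t : Sp B} (T : V →ₗ[K] V) (hT : ∀ v, T v = t.1 v) (hdet : LinearMap.det T = 1) :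
    ∃ s, jU hc hj s = t := by
  let T' : (Fin n → K) →ₗ[K] (Fin n → K) := (j.symm : V →ₗ[K] (Fin n → K)) ∘ₗ T ∘ₗ (j : (Fin n → K) →ₗ[K] V)
  have hT' : ∀ x, T' x = j.symm (t.1 (j x)) := by
    intro x
    show j.symm (T (j x)) = _
    rw [hT]
  have hd : (LinearMap.toMatrix' T').det = 1 := by
    rw [LinearMap.det_toMatrix', ← hdet]
    exact LinearMap.det_conj T j.symm
  refine ⟨mkSU (LinearMap.toMatrix' T') hd fun x y => ?_, ?_⟩
  · rw [LinearMap.toMatrix'_mulVec, LinearMap.toMatrix'_mulVec]
    apply tr_ext (F := F)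
    intro k
    rw [hj, hj, hT', hT', j.apply_symm_apply, j.apply_symm_apply, ← hT (j x), ← map_smul, hT, t.2]
  · apply Subtype.ext
    apply LinearEquiv.ext
    intro v
    obtain ⟨x, rfl⟩ := j.surjective v
    rw [jU_j]
    show j (LinearMap.toMatrix' T' *ᵥ x) = _
    rw [LinearMap.toMatrix'_mulVec, hT', j.apply_symm_apply]

/-- the image is normalised by the `K`-linear semisimilitudes -/
theorem jU_norm (M : SS B) (hM : ∀ (k : K) v, M (k • v) = k • M v) (s : SU n K q) :
    ∃ s', SS.cj M (jU hc hj s) = jU hc hj s' := by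
  let MK : V ≃ₗ[K] V := { M.f with map_smul' := fun k v => hM k v }
  obtain ⟨s', hs'⟩ := exists_jU hc hj (t := SS.cj M (jU hc hj s))
    ((MK : V →ₗ[K] V) ∘ₗ (opK j s : V →ₗ[K] V) ∘ₗ (MK.symm : V →ₗ[K] V)) (by
      intro v
      obtain ⟨v, rfl⟩ := M.surjective v
      rw [SS.cj_apply]
      show MK (opK j s (MK.symm (MK v))) = MK ((jU hc hj s).1 v)
      rw [MK.symm_apply_apply]
      rfl) (by
      rw [LinearMap.det_conj, det_opK])
  exact ⟨s', hs'.symm⟩

/-- the commutant -/
theorem jU_comm (hK : Fintype.card K = q ^ 2) (hn : 2 ≤ n) (f : V →+ V) (hf : ∀ (k : K) v, f (k • v) = k • f v)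
    (h : ∀ s v, f ((jU hc hj s).1 v) = (jU hc hj s).1 (f v)) : ∃ k : K, ∀ v, f v = k • v := by
  let fK : V →ₗ[K] V := { f with map_smul' := fun k v => hf k v }
  let f' : (Fin n → K) →ₗ[K] (Fin n → K) := (j.symm : V →ₗ[K] (Fin n → K)) ∘ₗ fK ∘ₗ (j : (Fin n → K) →ₗ[K] V)
  have hf' : ∀ x, f' x = j.symm (f (j x)) := fun x => rfl
  obtain ⟨k, hk⟩ := comm_lin hK hn f' (by
    intro s v
    rw [hf', hf', ← jU_j hc hj, h, jU_apply, j.symm_apply_apply])
  refine ⟨k, fun v => ?_⟩
  obtain ⟨x, rfl⟩ := j.surjective v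
  have h1 := hk x
  rw [hf'] at h1
  rw [← j.apply_symm_apply (f (j x)), h1, map_smul]

/-- isotropic vectors -/
theorem iso_of (hc : c ≠ 0) (hj : ∀ k x y, Algebra.trace F K (k * hermForm n K q x y) = B ((k * c) • j x) (j y))
    {x : Fin n → K} (hx : hermForm n K q x x = 0) (k : K) : B (k • j x) (j x) = 0 := by
  have h1 := hj (k * c⁻¹) x x
  rw [hx, mul_zero, map_zero, mul_assoc, inv_mul_cancel₀ hc, mul_one] at h1
  exact h1.symm

end field

section final

variable {F V : Type} [Field F] [Finite F] [AddCommGroup V] [Module F V] [FiniteDimensional F V]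
  {B : LinearMap.BilinForm F V}

/-- the special unitary group of a field `K` of degree two, abstract form -/
theorem exists_her_field {K : Type} [Field K] [Fintype K] [Algebra F K] [Module K V] [IsScalarTower F K V] {q : ℕ}
    (hB : NAlt B) (h2 : (2 : F) ≠ 0) (h4 : 4 ≤ finrank F V) (hex : ¬ (Nat.card F = 3 ∧ finrank F V = 4))
    (hK2 : finrank F K = 2) (hq : Nat.card F = q) (hs : ∀ (k : K) (u v : V), B (k • u) v = B u (k ^ q • v)) :
    ∃ j : SU (finrank K V) K q →* Sp B, Function.Injective j ∧ ¬ Function.Surjective j ∧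
      commutator (SU (finrank K V) K q) = ⊤ ∧ IsSimpleGroup (PSU (finrank K V) K q) ∧
      ¬ IsMulCommutative (PSU (finrank K V) K q) ∧
      (∀ s (k : K) v, (j s).1 (k • v) = k • (j s).1 v) ∧
      (∀ M : SS B, (∀ (k : K) v, M (k • v) = k • M v) → ∀ s, ∃ s', SS.cj M (j s) = j s') ∧
      (∀ f : V →+ V, (∀ (k : K) v, f (k • v) = k • f v) → (∀ s v, f ((j s).1 v) = (j s).1 (f v)) →
        ∃ k : K, ∀ v, f v = k • v) ∧
      (∀ (t : Sp B) (T : V →ₗ[K] V), (∀ v, T v = t.1 v) → LinearMap.det T = 1 → ∃ s, j s = t) ∧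
      ∃ (s : SU (finrank K V) K q) (e : V) (k : K) (m : ℕ), e ≠ 0 ∧ (∀ l : K, B (l • e) e = 0) ∧
        (j s).1 e = k • e ∧ k ^ 2 ≠ 1 ∧ 0 < m ∧ m.Coprime q ∧ s ^ m = 1 := by
  classical
  have hfV : Finite V := Module.finite_of_finite F
  have hfK : FiniteDimensional F K := Module.Finite.of_finite
  have hfKV : FiniteDimensional K V := Module.Finite.of_finite
  have hK : Fintype.card K = q ^ 2 := by
    rw [← Nat.card_eq_fintype_card, ← hq, Module.natCard_eq_pow_finrank (K := F) (V := K), hK2]
  have hmul : finrank F K * finrank K V = finrank F V := Module.finrank_mul_finrank F K V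
  have hn : 2 ≤ finrank K V := by rw [hK2] at hmul; omega
  have hF : Fintype F := Fintype.ofFinite F
  have hrF : ringChar F ≠ 2 := by
    intro h0
    apply h2
    have := ringChar.spec F 2
    rw [h0] at this
    exact_mod_cast this.2 dvd_rfl
  have hodd : q % 2 = 1 := by
    rw [← hq, Nat.card_eq_fintype_card]
    exact FiniteField.odd_card_of_char_ne_two hrF
  have hq2 := two_le hK
  have hq3 : 3 ≤ q := by omega
  have h23 : ¬ (finrank K V = 2 ∧ q = 3) := by
    rintro ⟨h5, h6⟩
    exact hex ⟨by rw [hq, h6], by rw [← hmul, hK2, h5]⟩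
  have h2K : (2 : K) ≠ 0 := by
    intro h0
    apply h2
    have h5 : algebraMap F K 2 = 0 := by rw [map_ofNat, h0]
    exact (map_eq_zero _).1 h5
  obtain ⟨c, j, hc, hj⟩ := exists_iso_her hB hK hq hs
  have hns : ¬ Function.Surjective (jU hc hj) := by
    intro hsur
    have h1 : ∀ k : K, ∃ c : F, ∀ v : V, k • v = c • v := by
      intro k
      apply scal_of_comm hB (by omega) (DistribSMul.toAddMonoidHom V k)
      intro t v
      obtain ⟨s, rfl⟩ := hsur t
      show k • (jU hc hj s).1 v = (jU hc hj s).1 (k • v)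
      rw [jU_smul]
    have hnt : Nontrivial V := Module.nontrivial_of_finrank_pos (R := F) (by omega)
    obtain ⟨v, hv⟩ := exists_ne (0 : V)
    have h2 : Function.Surjective (algebraMap F K) := by
      intro k
      obtain ⟨c, hc⟩ := h1 k
      refine ⟨c, ?_⟩
      have h3 : (algebraMap F K c - k) • v = 0 := by
        rw [sub_smul, algebraMap_smul, hc, sub_self]
      exact sub_eq_zero.1 ((smul_eq_zero.1 h3).resolve_right hv)
    have h3 : finrank F K ≤ finrank F F :=
      LinearMap.finrank_le_finrank_of_surjective (f := Algebra.linearMap F K) h2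
    rw [finrank_self] at h3
    omega
  have hpow : ∀ (s : SU (finrank K V) K q) (x : Fin (finrank K V) → K) (k : K), act s x = k • x →
      (jU hc hj s).1 (j x) = k • j x := by
    intro s x k h
    rw [jU_j, h, map_smul]
  refine ⟨jU hc hj, jU_injective hc hj, hns, perf hK hn hq3 h23, simple hK hn hq3 h23, ncomm hK hn hq3 h23,
    jU_smul hc hj, jU_norm hc hj, jU_comm hc hj hK hn, fun t T hT hd => exists_jU hc hj T hT hd, ?_⟩
  by_cases h5 : q = 3
  · have hn3 : 3 ≤ finrank K V := by
      by_contra h6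
      exact h23 ⟨by omega, h5⟩
    obtain ⟨a, ha, ha2⟩ : ∃ a : K, a ^ (q + 1) = 1 ∧ a ^ 2 ≠ 1 := by
      have h1 := card_norm_eq_one (F := K) (q := q) hK
      by_contra hcon
      push Not at hcon
      have h6 : ∀ x : {x : K // x * x ^ q = 1}, (x : K) ∈ ({1, -1} : Finset K) := by
        rintro ⟨x, hx⟩
        have h7 := hcon x (by rw [pow_succ']; exact hx)
        have h8 : (x - 1) * (x + 1) = 0 := by linear_combination h7
        simp only [Finset.mem_insert, Finset.mem_singleton]
        rcases mul_eq_zero.1 h8 with h9 | h9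
        · exact Or.inl (sub_eq_zero.1 h9)
        · exact Or.inr (eq_neg_of_add_eq_zero_left h9)
      have h7 : Nat.card {x : K // x * x ^ q = 1} ≤ Nat.card {x : K // x ∈ ({1, -1} : Finset K)} :=
        Nat.card_le_card_of_injective (fun x => (⟨x.1, h6 x⟩ : {x : K // x ∈ ({1, -1} : Finset K)}))
          (fun x y h => Subtype.ext (Subtype.mk.inj h))
      have h8 : Nat.card {x : K // x ∈ ({1, -1} : Finset K)} ≤ 2 := by
        rw [Nat.card_eq_fintype_card, Fintype.card_coe]
        exact Finset.card_le_two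
      omega
    obtain ⟨s, x, hx0, hx, hsx, hsm⟩ := exists_diag hK hn3 ha
    refine ⟨s, j x, a, q + 1, fun h => hx0 (j.map_eq_zero_iff.1 h), iso_of hc hj hx, hpow s x a hsx, ha2,
      by omega, ?_, hsm⟩
    exact Nat.coprime_self_add_left.2 (Nat.coprime_one_left q)
  · obtain ⟨a, ha0, ha2⟩ : ∃ a : F, a ≠ 0 ∧ a ^ 2 ≠ 1 := by
      by_contra hcon
      push Not at hcon
      have h6 : ∀ x : F, x ∈ ({0, 1, -1} : Finset F) := by
        intro x
        simp only [Finset.mem_insert, Finset.mem_singleton]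
        by_cases hx : x = 0
        · exact Or.inl hx
        have h7 := hcon x hx
        have h8 : (x - 1) * (x + 1) = 0 := by linear_combination h7
        rcases mul_eq_zero.1 h8 with h9 | h9
        · exact Or.inr (Or.inl (sub_eq_zero.1 h9))
        · exact Or.inr (Or.inr (eq_neg_of_add_eq_zero_left h9))
      have h7 : Fintype.card F ≤ 3 := by
        rw [← Finset.card_univ]
        exact (Finset.card_le_card fun x _ => h6 x).trans Finset.card_le_three
      rw [← Nat.card_eq_fintype_card, hq] at h7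
      omega
    have haq : (algebraMap F K a) ^ q = algebraMap F K a := by
      rw [← map_pow]
      congr 1
      rw [← hq, Nat.card_eq_fintype_card]
      exact FiniteField.pow_card a
    obtain ⟨s, x, hx0, hx, hsx, hsm⟩ := exists_split hK hn h2K ((map_ne_zero _).2 ha0) haq
    refine ⟨s, j x, algebraMap F K a, q - 1, fun h => hx0 (j.map_eq_zero_iff.1 h), iso_of hc hj hx, hpow s x _ hsx,
      ?_, by omega, ?_, hsm⟩
    · rw [← map_pow]
      intro h
      apply ha2
      exact (algebraMap F K).injective (by rw [h, map_one])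
    · obtain ⟨m, rfl⟩ : ∃ m, q = m + 1 := ⟨q - 1, by omega⟩
      rw [Nat.add_sub_cancel]
      exact Nat.coprime_self_add_right.2 (Nat.coprime_one_right m)

/-- **The special unitary group of `F[θ]`**, `θ ^ 2 = δ` not a square, `θ* = -θ`. -/
theorem exists_her (hB : NAlt B) (h2 : (2 : F) ≠ 0) (h4 : 4 ≤ finrank F V)
    (hex : ¬ (Nat.card F = 3 ∧ finrank F V = 4))
    (θ : Module.End F V) {δ : F} (hδ : ¬ IsSquare δ) (hsq : ∀ v, θ (θ v) = δ • v)
    (hθs : ∀ u v, B (θ u) v = - B u (θ v)) :
    ∃ (X : Type) (_ : Group X) (_ : Finite X) (j : X →* Sp B), Function.Injective j ∧ ¬ Function.Surjective j ∧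
      commutator X = ⊤ ∧ IsSimpleGroup (X ⧸ Subgroup.center X) ∧ ¬ IsMulCommutative (X ⧸ Subgroup.center X) ∧
      (∀ s v, (j s).1 (θ v) = θ ((j s).1 v)) ∧
      (∀ M : SS B, M.IsLin → (∀ v, M (θ v) = θ (M v)) → ∀ s, ∃ s', SS.cj M (j s) = j s') ∧
      (∀ f : V →ₗ[F] V, (∀ v, f (θ v) = θ (f v)) → (∀ s v, f ((j s).1 v) = (j s).1 (f v)) →
        ∃ a b : F, ∀ v, f v = a • v + b • θ v) ∧
      ∃ (s : X) (e : V) (a b : F) (m : ℕ), e ≠ 0 ∧ B e (θ e) = 0 ∧ (j s).1 e = a • e + b • θ e ∧
        ¬ (a * a + b * b * δ = 1 ∧ 2 * a * b = 0) ∧ 0 < m ∧ m.Coprime (Nat.card F) ∧ s ^ m = 1 := by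
  classical
  have hfV : Finite V := Module.finite_of_finite F
  let P : Polynomial F := Polynomial.X ^ 2 - Polynomial.C δ
  have hP : Irreducible P := X_pow_sub_C_irreducible_of_prime Nat.prime_two fun b hb =>
    hδ ⟨b, by rw [← hb, sq]⟩
  have hPm : P.Monic := Polynomial.monic_X_pow_sub_C δ two_ne_zero
  have hPd : P.natDegree = 2 := Polynomial.natDegree_X_pow_sub_C
  have : Fact (Irreducible P) := ⟨hP⟩
  have haev : Polynomial.aeval θ P = 0 := by
    show Polynomial.aeval θ (Polynomial.X ^ 2 - Polynomial.C δ) = 0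
    rw [map_sub, map_pow, Polynomial.aeval_X, Polynomial.aeval_C, sub_eq_zero]
    apply LinearMap.ext
    intro v
    rw [sq, Module.End.mul_apply, hsq]
    rfl
  let φ : AdjoinRoot P →+* Module.End F V :=
    Ideal.Quotient.lift (Ideal.span {P}) (Polynomial.aeval θ).toRingHom (by
      intro a ha
      obtain ⟨b, rfl⟩ := Ideal.mem_span_singleton'.1 ha
      show Polynomial.aeval θ (b * P) = 0
      rw [map_mul, haev, mul_zero])
  have hφ : ∀ f : Polynomial F, φ (AdjoinRoot.mk _ f) = Polynomial.aeval θ f := fun f => rfl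
  let _ : Module (AdjoinRoot P) V := Module.compHom V φ
  have hsm : ∀ (f : Polynomial F) (v : V), (AdjoinRoot.mk P f) • v = Polynomial.aeval θ f v := by
    intro f v
    rw [← hφ]
    rfl
  have htw : IsScalarTower F (AdjoinRoot P) V := ⟨fun a k v => by
    obtain ⟨f, rfl⟩ := AdjoinRoot.mk_surjective k
    rw [AdjoinRoot.smul_mk, hsm, hsm, map_smul, LinearMap.smul_apply]⟩
  have hfd : FiniteDimensional F (AdjoinRoot P) := (AdjoinRoot.powerBasis hP.ne_zero).finite
  have hfin : Finite (AdjoinRoot P) := Module.finite_of_finite F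
  let _ : Fintype (AdjoinRoot P) := Fintype.ofFinite _
  have hK2 : finrank F (AdjoinRoot P) = 2 := by
    rw [(AdjoinRoot.powerBasis hP.ne_zero).finrank, AdjoinRoot.powerBasis_dim, hPd]
  -- all elements
  have hroot : ∀ v : V, AdjoinRoot.root P • v = θ v := by
    intro v
    rw [← AdjoinRoot.mk_X, hsm, Polynomial.aeval_X]
  have hab : ∀ k : AdjoinRoot P, ∃ a b : F, k = algebraMap F _ a + algebraMap F _ b * AdjoinRoot.root P := by
    intro k
    obtain ⟨f, rfl⟩ := AdjoinRoot.mk_surjective k
    have h1 : (AdjoinRoot.mk P) f = AdjoinRoot.mk P (f %ₘ P) := by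
      rw [AdjoinRoot.mk_eq_mk]
      exact ⟨f /ₘ P, by
        have := Polynomial.modByMonic_add_div f P
        linear_combination -this⟩
    have h3 : (f %ₘ P).natDegree ≤ 1 := by
      have h4 := Polynomial.natDegree_modByMonic_lt f hPm (by
        intro h5
        rw [h5] at hPd
        simp at hPd)
      omega
    obtain ⟨b, a, h5⟩ := Polynomial.exists_eq_X_add_C_of_natDegree_le_one h3
    refine ⟨a, b, ?_⟩
    rw [h1, h5, map_add, map_mul, AdjoinRoot.mk_X, AdjoinRoot.mk_C, AdjoinRoot.mk_C, AdjoinRoot.algebraMap_eq, add_comm]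
  have hsmab : ∀ (a b : F) (v : V), (algebraMap F (AdjoinRoot P) a + algebraMap F _ b * AdjoinRoot.root P) • v =
      a • v + b • θ v := by
    intro a b v
    rw [add_smul, mul_smul, hroot, algebraMap_smul, algebraMap_smul]
  have hrsq : AdjoinRoot.root P * AdjoinRoot.root P = algebraMap F _ δ := by
    have h1 := AdjoinRoot.mk_self (f := P)
    have h3 : AdjoinRoot.mk P (Polynomial.X ^ 2 - Polynomial.C δ) = 0 := h1
    rw [map_sub, map_pow, AdjoinRoot.mk_X, AdjoinRoot.mk_C, sub_eq_zero, sq] at h3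
    rw [h3, AdjoinRoot.algebraMap_eq]
  -- the Frobenius
  have hF : Fintype F := Fintype.ofFinite F
  have hrF : ringChar F ≠ 2 := by
    intro h0
    apply h2
    have := ringChar.spec F 2
    rw [h0] at this
    exact_mod_cast this.2 dvd_rfl
  have hodd : Nat.card F % 2 = 1 := by
    rw [Nat.card_eq_fintype_card]
    exact FiniteField.odd_card_of_char_ne_two hrF
  have hδ0 : δ ≠ 0 := fun h => hδ (h ▸ IsSquare.zero)
  have hrq : AdjoinRoot.root P ^ (Nat.card F) = - AdjoinRoot.root P := by
    have h1 : Nat.card F = 2 * (Nat.card F / 2) + 1 := by omega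
    have h3 : δ ^ (Nat.card F / 2) = -1 := by
      rw [Nat.card_eq_fintype_card]
      rcases FiniteField.pow_dichotomy hrF hδ0 with h | h
      · exact absurd ((FiniteField.isSquare_iff hrF hδ0).2 h) hδ
      · exact h
    rw [h1, pow_succ, pow_mul, sq, hrsq, ← map_pow, h3, map_neg, map_one, neg_one_mul]
  have hK : Fintype.card (AdjoinRoot P) = Nat.card F ^ 2 := by
    rw [← Nat.card_eq_fintype_card, Module.natCard_eq_pow_finrank (K := F) (V := AdjoinRoot P), hK2]
  have hs : ∀ (k : AdjoinRoot P) (u v : V), B (k • u) v = B u (k ^ (Nat.card F) • v) := by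
    intro k u v
    obtain ⟨a, b, rfl⟩ := hab k
    have haq : ∀ a : F, (algebraMap F (AdjoinRoot P) a) ^ (Nat.card F) = algebraMap F _ a := by
      intro a
      rw [← map_pow, Nat.card_eq_fintype_card, FiniteField.pow_card]
    have h1 : (algebraMap F (AdjoinRoot P) a + algebraMap F _ b * AdjoinRoot.root P) ^ (Nat.card F) =
        algebraMap F _ a + algebraMap F _ (-b) * AdjoinRoot.root P := by
      rw [add_pow_q hK, mul_pow, haq, haq, hrq, map_neg]
      ring
    rw [h1, hsmab, hsmab, map_add, LinearMap.add_apply, map_smul, LinearMap.smul_apply, map_smul, LinearMap.smul_apply,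
      map_add, map_smul, map_smul, hθs, neg_smul, smul_neg]
  -- additive maps commuting with `θ` and `F`
  have hcomm : ∀ f : V →+ V, (∀ (a : F) v, f (a • v) = a • f v) → (∀ v, f (θ v) = θ (f v)) →
      ∀ (k : AdjoinRoot P) v, f (k • v) = k • f v := by
    intro f hf1 hf2 k v
    obtain ⟨a, b, rfl⟩ := hab k
    rw [hsmab, hsmab, map_add, hf1, hf1, hf2]
  obtain ⟨j, hj1, hj2, hj3, hj4, hj5, hj6, hj7, hj8, -, s, e, k, m, he, hiso, hse, hk2, hm, hcop, hsm'⟩ :=
    exists_her_field (K := AdjoinRoot P) (q := Nat.card F) hB h2 h4 hex hK2 rfl hs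
  have hfX : Finite (SU (finrank (AdjoinRoot P) V) (AdjoinRoot P) (Nat.card F)) := inferInstance
  refine ⟨SU (finrank (AdjoinRoot P) V) (AdjoinRoot P) (Nat.card F), inferInstance, hfX, j, hj1, hj2, hj3, hj4, hj5,
    ?_, ?_, ?_, ?_⟩
  · intro s v
    rw [← hroot, hj6, hroot]
  · intro M hl hM s
    exact hj7 M (hcomm M.f.toAddMonoidHom hl.map_smul hM) s
  · intro f hf1 hf2
    obtain ⟨k, hk⟩ := hj8 f.toAddMonoidHom (hcomm f.toAddMonoidHom (fun a v => map_smul f a v) hf1) hf2
    obtain ⟨a, b, rfl⟩ := hab k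
    exact ⟨a, b, fun v => by rw [← hsmab]; exact hk v⟩
  · obtain ⟨a, b, rfl⟩ := hab k
    refine ⟨s, e, a, b, m, he, ?_, ?_, ?_, hm, hcop, hsm'⟩
    · have h1 := hiso (AdjoinRoot.root P)
      rw [hroot] at h1
      exact hB.swap0 h1
    · rw [hse, hsmab]
    · rintro ⟨h5, h6⟩
      apply hk2
      have h7 : (algebraMap F (AdjoinRoot P) a + algebraMap F _ b * AdjoinRoot.root P) ^ 2 =
          algebraMap F _ (a * a + b * b * δ) + algebraMap F _ (2 * a * b) * AdjoinRoot.root P := by
        rw [map_add, map_mul, map_mul, map_mul, map_mul, map_mul, map_ofNat, ← hrsq]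
        ring
      rw [h7, h5, h6, map_one, map_zero, zero_mul, add_zero]

end final

end Cfsg.Agent.H236.RC.Her
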