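import Cfsg.Agent.H452.RC.SUTwo
import Cfsg.Agent.LieClassical.HermPerfect
import Cfsg.Agent.ClassicalGeometry.PSUAutBasic
import Cfsg.Agent.LieClassical.SUBasic
import Cfsg.Agent.S0283

/-!
# Special unitary groups `SU n K q`, `n ≥ 2`: facts in coordinates (helper236)

* `perf`, `simple`, `ncomm` : `(n, q) ≠ (2, 2), (2, 3), (3, 2)`;
* `comm_lin` : linear maps commuting with `SU n K q` are scalars;
* `exists_split` : `y e = b e` with `b ^ q = b`, `b ^ 2 ≠ 1`, `e` isotropic (`q ≥ 4` odd);
* `exists_diag` : `y e = a e` with `a ^ (q + 1) = 1`, `a ^ 2 ≠ 1`, `e` isotropic (`n ≥ 3`).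
-/

set_option autoImplicit false
set_option linter.unusedVariables false

namespace Cfsg.Agent.H236.RC.Her

open Matrix Cfsg Cfsg.Agent.LieClassical.HermBasic Cfsg.Agent.LieClassical.HermSiegel
  Cfsg.Agent.ClassicalGeometry.PSUAutBasic Cfsg.Agent.LieClassical.SUBasic Cfsg.Agent.LieClassical

variable {K : Type*} [Field K] [Fintype K] {n q : ℕ}

theorem perf (hK : Fintype.card K = q ^ 2) (hn : 2 ≤ n) (hq : 3 ≤ q) (h23 : ¬ (n = 2 ∧ q = 3)) :
    commutator (SU n K q) = ⊤ := by
  by_cases h : n = 2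
  · subst h
    exact H452.RC.comm_two hK (by omega)
  · exact HermPerfect.commutator_SU_eq_top hK (by omega) (by omega)

theorem simple (hK : Fintype.card K = q ^ 2) (hn : 2 ≤ n) (hq : 3 ≤ q) (h23 : ¬ (n = 2 ∧ q = 3)) :
    IsSimpleGroup (PSU n K q) := by
  by_cases h : n = 2
  · subst h
    exact H452.RC.simple_two hK (by omega)
  · exact S0283.result hK n (by omega) (by omega)

theorem ncomm (hK : Fintype.card K = q ^ 2) (hn : 2 ≤ n) (hq : 3 ≤ q) (h23 : ¬ (n = 2 ∧ q = 3)) :
    ¬ IsMulCommutative (PSU n K q) := by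
  have h1 := simple hK hn hq h23
  have h2 : Nontrivial (PSU n K q) := h1.toNontrivial
  apply H452.RC.nc_of_perfect
  have h3 := perf hK hn hq h23
  have h4 : Subgroup.map (pr n K q) (commutator (SU n K q)) = commutator (PSU n K q) := by
    rw [commutator_def, commutator_def, Subgroup.map_commutator,
      Subgroup.map_top_of_surjective _ (pr_surjective (n := n) (F := K) (q := q))]
  rw [← h4, h3, Subgroup.map_top_of_surjective _ (pr_surjective (n := n) (F := K) (q := q))]

/-- three elements of norm `-1` -/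
theorem exists_three (hF : Fintype.card K = q ^ 2) :
    ∃ t : Fin 3 → K, Function.Injective t ∧ ∀ i, t i * t i ^ q = -1 := by
  classical
  have h1 := card_norm_eq hF (c := (-1 : K)) (by rw [neg_pow_q hF, one_pow]) (neg_ne_zero.2 one_ne_zero)
  have h2 := two_le hF
  rw [Nat.card_eq_fintype_card] at h1
  have h3 : 2 < Fintype.card {x : K // x * x ^ q = -1} := by omega
  obtain ⟨a, b, c, hab, hac, hbc⟩ := Fintype.two_lt_card_iff.1 h3
  refine ⟨![a, b, c], ?_, ?_⟩
  · have h1 : (a : K) ≠ b := fun h => hab (Subtype.ext h)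
    have h2 : (a : K) ≠ c := fun h => hac (Subtype.ext h)
    have h3 : (b : K) ≠ c := fun h => hbc (Subtype.ext h)
    intro i j h
    fin_cases i <;> fin_cases j <;> simp_all [eq_comm]
  · intro i
    fin_cases i
    · exact a.2
    · exact b.2
    · exact c.2

/-- the isotropic vector `b_i + t b_j` -/
theorem herm_two (hK : Fintype.card K = q ^ 2) {i j : Fin n} (hij : i ≠ j) {t : K} (ht : t * t ^ q = -1) :
    hermForm n K q (Pi.single i 1 + t • Pi.single j 1) (Pi.single i 1 + t • Pi.single j 1) = 0 := by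
  simp only [herm_add_left, herm_add_right hK, herm_smul_left, herm_smul_right, herm_single_left, Pi.single_eq_same,
    Pi.single_eq_of_ne hij, Pi.single_eq_of_ne hij.symm, zero_pow_q hK, one_pow]
  linear_combination ht

theorem two_ne (i j : Fin n) (hij : i ≠ j) (t : K) : (Pi.single i 1 + t • Pi.single j 1 : Fin n → K) ≠ 0 := by
  intro h
  have h1 := congrFun h i
  rw [Pi.add_apply, Pi.smul_apply, Pi.single_eq_same, Pi.single_eq_of_ne hij, smul_zero, add_zero, Pi.zero_apply] at h1
  exact one_ne_zero h1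

/-- linear maps commuting with `SU n K q` are scalars -/
theorem comm_lin (hK : Fintype.card K = q ^ 2) (hn : 2 ≤ n) (f : (Fin n → K) →ₗ[K] (Fin n → K))
    (hf : ∀ (s : SU n K q) v, f (act s v) = act s (f v)) : ∃ c : K, ∀ v, f v = c • v := by
  classical
  obtain ⟨μ, hμ0, hμ⟩ := exists_trace_zero_ne (F := K) (q := q) hK
  have hsing : ∀ e : Fin n → K, e ≠ 0 → hermForm n K q e e = 0 → ∃ c : K, f e = c • e := by
    intro e he0 he
    obtain ⟨v, hv⟩ := exists_herm_ne_zero hK he0
    have hv' : hermForm n K q v e ≠ 0 := fun h0 => hv (herm_eq_zero_swap hK h0)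
    have h1 := hf (transv hK e he μ hμ) v
    rw [act_transv, act_transv, map_add, map_smul, add_right_inj] at h1
    have h2 : μ * hermForm n K q v e ≠ 0 := mul_ne_zero hμ0 hv'
    refine ⟨(μ * hermForm n K q v e)⁻¹ * (μ * hermForm n K q (f v) e), ?_⟩
    rw [mul_smul, ← h1, smul_smul, inv_mul_cancel₀ h2, one_smul]
  obtain ⟨t, ht1, ht2⟩ := exists_three hK
  have key : ∀ i j : Fin n, i ≠ j → f (Pi.single j 1) i = 0 ∧ f (Pi.single i 1) i = f (Pi.single j 1) j := by
    intro i j hij
    have h1 : ∀ k, f (Pi.single i 1) j + t k * f (Pi.single j 1) j =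
        t k * f (Pi.single i 1) i + t k * t k * f (Pi.single j 1) i := by
      intro k
      obtain ⟨c, hc⟩ := hsing _ (two_ne i j hij (t k)) (herm_two hK hij (ht2 k))
      rw [map_add, map_smul] at hc
      have e1 := congrFun hc i
      have e2 := congrFun hc j
      simp only [Pi.add_apply, Pi.smul_apply, smul_eq_mul, Pi.single_eq_same, Pi.single_eq_of_ne hij,
        Pi.single_eq_of_ne hij.symm, mul_zero, mul_one, add_zero, zero_add] at e1 e2
      rw [e2, ← e1]
      ring
    have ht01 : t 0 - t 1 ≠ 0 := sub_ne_zero.2 fun h => by simpa using ht1 h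
    have ht02 : t 0 - t 2 ≠ 0 := sub_ne_zero.2 fun h => by simpa using ht1 h
    have ht12 : t 1 - t 2 ≠ 0 := sub_ne_zero.2 fun h => by simpa using ht1 h
    have a1 : (t 0 - t 1) * (f (Pi.single j 1) j - f (Pi.single i 1) i - (t 0 + t 1) * f (Pi.single j 1) i) = 0 := by
      linear_combination h1 0 - h1 1
    have a2 : (t 0 - t 2) * (f (Pi.single j 1) j - f (Pi.single i 1) i - (t 0 + t 2) * f (Pi.single j 1) i) = 0 := by
      linear_combination h1 0 - h1 2
    have b1 := (mul_eq_zero.1 a1).resolve_left ht01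
    have b2 := (mul_eq_zero.1 a2).resolve_left ht02
    have b3 : (t 1 - t 2) * f (Pi.single j 1) i = 0 := by linear_combination b2 - b1
    have b4 := (mul_eq_zero.1 b3).resolve_left ht12
    refine ⟨b4, ?_⟩
    rw [b4] at b1
    linear_combination -b1
  refine ⟨f (Pi.single ⟨0, by omega⟩ 1) ⟨0, by omega⟩, ?_⟩
  have h2 : f = f (Pi.single ⟨0, by omega⟩ 1) ⟨0, by omega⟩ • LinearMap.id := by
    refine LinearMap.pi_ext fun j x => ?_
    have h3 : (Pi.single j x : Fin n → K) = x • Pi.single j 1 := by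
      rw [← Pi.single_smul, smul_eq_mul, mul_one]
    rw [h3, map_smul, map_smul]
    congr 1
    funext i
    rw [LinearMap.smul_apply, LinearMap.id_apply, Pi.smul_apply, smul_eq_mul]
    by_cases hij : i = j
    · subst hij
      rw [Pi.single_eq_same, mul_one]
      by_cases h0 : i = ⟨0, by omega⟩
      · subst h0; rfl
      · exact ((key ⟨0, by omega⟩ i (Ne.symm h0)).2).symm
    · rw [Pi.single_eq_of_ne hij, mul_zero]
      exact (key i j hij).1
  intro v
  conv_lhs => rw [h2]
  rfl

section split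

variable (hK : Fintype.card K = q ^ 2) {e e' : Fin n → K} (he : hermForm n K q e e = 0) (he' : hermForm n K q e' e' = 0)
  (h1 : hermForm n K q e e' = 1)

include h1 in
theorem one' (hK : Fintype.card K = q ^ 2) : hermForm n K q e' e = 1 := by
  rw [herm_swap hK, h1, one_pow]

theorem inv_tr (hK : Fintype.card K = q ^ 2) {μ : K} (hμ0 : μ ≠ 0) (hμ : μ + μ ^ q = 0) : -μ⁻¹ + (-μ⁻¹) ^ q = 0 := by
  rw [neg_pow_q hK, inv_pow, eq_neg_of_add_eq_zero_right hμ, inv_neg]
  ring

/-- `w(μ)` -/
noncomputable def wU (he : hermForm n K q e e = 0) (he' : hermForm n K q e' e' = 0) {μ : K} (hμ0 : μ ≠ 0)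
    (hμ : μ + μ ^ q = 0) : SU n K q :=
  transv hK e he μ hμ * transv hK e' he' (-μ⁻¹) (inv_tr hK hμ0 hμ) * transv hK e he μ hμ

include h1 in
theorem wU_e {μ : K} (hμ0 : μ ≠ 0) (hμ : μ + μ ^ q = 0) : act (wU hK he he' hμ0 hμ) e = (-μ⁻¹) • e' := by
  have s1 : act (transv hK e he μ hμ) e = e := by rw [act_transv, he, mul_zero, zero_smul, add_zero]
  have s2 : act (transv hK e' he' (-μ⁻¹) (inv_tr hK hμ0 hμ)) e = e + (-μ⁻¹) • e' := by rw [act_transv, h1, mul_one]
  have s3 : act (transv hK e he μ hμ) e' = e' + μ • e := by rw [act_transv, one' h1 hK, mul_one]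
  rw [wU, act_mul, act_mul, s1, s2, act_add, act_smul, s1, s3, smul_add, smul_smul, neg_mul, inv_mul_cancel₀ hμ0,
    neg_one_smul]
  abel

include h1 in
theorem wU_e' {μ : K} (hμ0 : μ ≠ 0) (hμ : μ + μ ^ q = 0) : act (wU hK he he' hμ0 hμ) e' = μ • e := by
  have s1 : act (transv hK e he μ hμ) e = e := by rw [act_transv, he, mul_zero, zero_smul, add_zero]
  have s2 : act (transv hK e' he' (-μ⁻¹) (inv_tr hK hμ0 hμ)) e = e + (-μ⁻¹) • e' := by rw [act_transv, h1, mul_one]
  have s3 : act (transv hK e he μ hμ) e' = e' + μ • e := by rw [act_transv, one' h1 hK, mul_one]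
  have s4 : act (transv hK e' he' (-μ⁻¹) (inv_tr hK hμ0 hμ)) e' = e' := by
    rw [act_transv, he', mul_zero, zero_smul, add_zero]
  rw [wU, act_mul, act_mul, s3, act_add, act_smul, s4, s2, smul_add, smul_smul, mul_neg, mul_inv_cancel₀ hμ0,
    neg_one_smul, act_add, act_add, act_smul, act_neg, s1, s3]
  abel

theorem wU_perp {μ : K} (hμ0 : μ ≠ 0) (hμ : μ + μ ^ q = 0) {u : Fin n → K} (hu : hermForm n K q u e = 0)
    (hu' : hermForm n K q u e' = 0) : act (wU hK he he' hμ0 hμ) u = u := by
  have s1 : act (transv hK e he μ hμ) u = u := by rw [act_transv, hu, mul_zero, zero_smul, add_zero]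
  have s2 : act (transv hK e' he' (-μ⁻¹) (inv_tr hK hμ0 hμ)) u = u := by
    rw [act_transv, hu', mul_zero, zero_smul, add_zero]
  rw [wU, act_mul, act_mul, s1, s2, s1]

theorem exists_split (hK : Fintype.card K = q ^ 2) (hn : 2 ≤ n) (h2 : (2 : K) ≠ 0) {b : K} (hb0 : b ≠ 0) (hb : b ^ q = b) :
    ∃ (s : SU n K q) (e : Fin n → K), e ≠ 0 ∧ hermForm n K q e e = 0 ∧ act s e = b • e ∧ s ^ (q - 1) = 1 := by
  classical
  obtain ⟨t, -, ht⟩ := exists_three hK
  have ht := ht 0
  set i : Fin n := ⟨0, by omega⟩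
  set j : Fin n := ⟨1, by omega⟩
  have hij : i ≠ j := fun h => by simpa [i, j] using congrArg Fin.val h
  have h2q : ((2 : K)⁻¹) ^ q = 2⁻¹ := by
    rw [inv_pow]
    congr 1
    have : (2 : K) = 1 + 1 := by norm_num
    rw [this, add_pow_q hK, one_pow]
  set e : Fin n → K := Pi.single i 1 + t 0 • Pi.single j 1 with he_def
  set e' : Fin n → K := (2 : K)⁻¹ • (Pi.single i 1 + (-t 0) • Pi.single j 1) with he'_def
  have he : hermForm n K q e e = 0 := herm_two hK hij ht
  have he' : hermForm n K q e' e' = 0 := by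
    rw [he'_def, herm_smul_left, herm_smul_right, herm_two hK hij, mul_zero, mul_zero]
    rw [neg_pow_q hK]
    linear_combination ht
  have h1 : hermForm n K q e e' = 1 := by
    rw [he_def, he'_def, herm_smul_right]
    simp only [herm_add_left, herm_add_right hK, herm_smul_left, herm_smul_right, herm_single_left, Pi.single_eq_same,
      Pi.single_eq_of_ne hij, Pi.single_eq_of_ne hij.symm, zero_pow_q hK, one_pow, h2q, neg_pow_q hK]
    field_simp
    linear_combination -ht
  obtain ⟨μ, hμ0, hμ⟩ := exists_trace_zero_ne (F := K) (q := q) hK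
  have hbμ : b * μ + (b * μ) ^ q = 0 := by rw [mul_pow, hb]; linear_combination b * hμ
  have hnμ : -μ + (-μ) ^ q = 0 := by rw [neg_pow_q hK]; linear_combination -hμ
  set s : SU n K q := wU hK he he' (mul_ne_zero hb0 hμ0) hbμ * wU hK he he' (neg_ne_zero.2 hμ0) hnμ with hs
  have hse : act s e = b • e := by
    rw [hs, act_mul, wU_e hK he he' h1, act_smul, wU_e' hK he he' h1, smul_smul]
    congr 1
    rw [inv_neg, neg_neg]
    field_simp
  have hse' : act s e' = b⁻¹ • e' := by
    rw [hs, act_mul, wU_e' hK he he' h1, act_smul, wU_e hK he he' h1, smul_smul]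
    congr 1
    field_simp
  have hsu : ∀ u, hermForm n K q u e = 0 → hermForm n K q u e' = 0 → act s u = u := by
    intro u hu hu'
    rw [hs, act_mul, wU_perp hK he he' _ _ hu hu', wU_perp hK he he' _ _ hu hu']
  have hpe : ∀ k : ℕ, act (s ^ k) e = b ^ k • e := by
    intro k
    induction k with
    | zero => rw [pow_zero, act_one, pow_zero, one_smul]
    | succ k ih => rw [pow_succ, act_mul, hse, act_smul, ih, smul_smul, pow_succ, mul_comm]
  have hpe' : ∀ k : ℕ, act (s ^ k) e' = (b⁻¹) ^ k • e' := by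
    intro k
    induction k with
    | zero => rw [pow_zero, act_one, pow_zero, one_smul]
    | succ k ih => rw [pow_succ, act_mul, hse', act_smul, ih, smul_smul, pow_succ, mul_comm]
  have hpu : ∀ (k : ℕ) u, hermForm n K q u e = 0 → hermForm n K q u e' = 0 → act (s ^ k) u = u := by
    intro k u hu hu'
    induction k with
    | zero => rw [pow_zero, act_one]
    | succ k ih => rw [pow_succ, act_mul, hsu u hu hu', ih]
  have hbq : b ^ (q - 1) = 1 := by
    have h3 : b ^ (q - 1) * b = b := by
      rw [← pow_succ, Nat.sub_add_cancel (q_pos hK), hb]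
    exact mul_right_cancel₀ hb0 (h3.trans (one_mul b).symm)
  refine ⟨s, e, two_ne i j hij (t 0), he, hse, ?_⟩
  apply ext_act
  intro v
  have hv : v = hermForm n K q v e' • e + hermForm n K q v e • e' +
      (v - hermForm n K q v e' • e - hermForm n K q v e • e') := by abel
  have hu1 : hermForm n K q (v - hermForm n K q v e' • e - hermForm n K q v e • e') e = 0 := by
    rw [herm_sub_left, herm_sub_left, herm_smul_left, herm_smul_left, he, one' h1 hK]
    ring
  have hu2 : hermForm n K q (v - hermForm n K q v e' • e - hermForm n K q v e • e') e' = 0 := by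
    rw [herm_sub_left, herm_sub_left, herm_smul_left, herm_smul_left, he', h1]
    ring
  rw [act_one]
  conv_lhs => rw [hv]
  rw [act_add, act_add, act_smul, act_smul, hpe, hpe', hpu _ _ hu1 hu2, inv_pow, hbq, inv_one, one_smul, one_smul]
  exact hv.symm

end split

theorem exists_diag (hK : Fintype.card K = q ^ 2) (hn : 3 ≤ n) {a : K} (ha : a ^ (q + 1) = 1) :
    ∃ (s : SU n K q) (e : Fin n → K), e ≠ 0 ∧ hermForm n K q e e = 0 ∧ act s e = a • e ∧ s ^ (q + 1) = 1 := by
  classical
  obtain ⟨t, -, ht⟩ := exists_three hK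
  have ht := ht 0
  set i : Fin n := ⟨0, by omega⟩
  set j : Fin n := ⟨1, by omega⟩
  set k : Fin n := ⟨2, by omega⟩
  have hij : i ≠ j := fun h => by simpa [i, j] using congrArg Fin.val h
  have hik : i ≠ k := fun h => by simpa [i, k] using congrArg Fin.val h
  have hjk : j ≠ k := fun h => by simpa [j, k] using congrArg Fin.val h
  have ha0 : a ≠ 0 := by
    rintro rfl
    rw [zero_pow (by omega)] at ha
    exact zero_ne_one ha
  let c : Fin n → K := fun l => (Pi.mulSingle i a : Fin n → K) l * (Pi.mulSingle j a : Fin n → K) l *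
    (Pi.mulSingle k ((a * a)⁻¹) : Fin n → K) l
  have hc1 : ∏ l, c l = 1 := by
    simp only [c]
    rw [Finset.prod_mul_distrib, Finset.prod_mul_distrib, Finset.prod_pi_mulSingle', Finset.prod_pi_mulSingle',
      Finset.prod_pi_mulSingle', if_pos (Finset.mem_univ _), if_pos (Finset.mem_univ _), if_pos (Finset.mem_univ _),
      mul_inv_cancel₀ (mul_ne_zero ha0 ha0)]
  have hms : ∀ (l m : Fin n) (x : K), x ^ (q + 1) = 1 → ((Pi.mulSingle l x : Fin n → K) m) ^ (q + 1) = 1 := by
    intro l m x hx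
    by_cases h : m = l
    · subst h
      rw [Pi.mulSingle_eq_same, hx]
    · rw [Pi.mulSingle_eq_of_ne h, one_pow]
  have hc2 : ∀ l, c l ^ (q + 1) = 1 := by
    intro l
    simp only [c]
    rw [mul_pow, mul_pow, hms _ _ _ ha, hms _ _ _ ha, hms, one_mul, one_mul]
    rw [inv_pow, mul_pow, ha, one_mul, inv_one]
  let s : SU n K q := suDiag q c hc1 hc2
  have hs : ∀ v l, act s v l = c l * v l := by
    intro v l
    show (Matrix.diagonal c *ᵥ v) l = _
    rw [Matrix.mulVec_diagonal]
  have hci : c i = a := by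
    simp only [c]
    rw [Pi.mulSingle_eq_same, Pi.mulSingle_eq_of_ne hij, Pi.mulSingle_eq_of_ne hik, mul_one, mul_one]
  have hcj : c j = a := by
    simp only [c]
    rw [Pi.mulSingle_eq_same, Pi.mulSingle_eq_of_ne hij.symm, Pi.mulSingle_eq_of_ne hjk, mul_one, one_mul]
  refine ⟨s, Pi.single i 1 + t 0 • Pi.single j 1, two_ne i j hij _, herm_two hK hij ht, ?_, ?_⟩
  · funext l
    rw [hs, Pi.smul_apply, smul_eq_mul]
    by_cases hli : l = i
    · rw [hli, hci]
    by_cases hlj : l = j
    · rw [hlj, hcj]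
    rw [Pi.add_apply, Pi.smul_apply, Pi.single_eq_of_ne hli, Pi.single_eq_of_ne hlj, smul_zero, add_zero, mul_zero,
      mul_zero]
  · have hp : ∀ (m : ℕ) v l, act (s ^ m) v l = c l ^ m * v l := by
      intro m
      induction m with
      | zero => intro v l; rw [pow_zero, act_one, pow_zero, one_mul]
      | succ m ih => intro v l; rw [pow_succ, act_mul, ih, hs]; ring
    apply ext_act
    intro v
    funext l
    rw [hp, hc2, one_mul, act_one]

end Cfsg.Agent.H236.RC.Her
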